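import Cfsg.Agent.MON.SigB
import Cfsg.Agent.MON.SigA

/-! The relations of `σ` inside a subgroup `C` (after `MON/SigB0`, `MON/SigB`). -/

set_option autoImplicit false

namespace Cfsg.Agent.H8.MA

open Cfsg.Agent.H14 Equiv MON MON.SB

variable {G : Type*} [Group G] {C : Subgroup G} {φ : N →* G} {σ : G}

/-- `MON.SA` relative to a subgroup `C` -/
structure SC (C : Subgroup G) (φ : N →* G) (σ : G) : Prop where
  k0 : ∀ g : N, (g : Perm Pt) ∈ K0 → φ g = 1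
  inj : ∀ g : N, φ g = 1 → (g : Perm Pt) ∈ K0
  al : ∀ x ∈ DP.drop 12, σ * φ (el x.1) * σ⁻¹ = φ (el x.2)
  cenQ : ∀ g ∈ C, (∀ x ∈ DP.drop 12, g * φ (el x.1) = φ (el x.1) * g) → g = 1 ∨ g = φ (el cZ)
  cenA : ∀ g ∈ C, (∀ x ∈ (DP.drop 23).take 12, g * φ (el x.1) = φ (el x.1) * g) → ∀ x ∈ DP.drop 12,
      g * φ (el x.1) = φ (el x.1) * g ∨ g * φ (el x.1) = φ (el cZ) * φ (el x.1) * g
  cen : ∀ e, e = 1 ∨ e = φ (el cZ) → C ≤ CC φ (σ * e)
  mem : σ ∈ C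
  nx : ∀ g : N, Commute (φ (el cZ)) (φ g) → φ g ∈ C
  good : ∀ e, e = 1 ∨ e = φ (el cZ) → Commute ((σ * e * φ (el cT)) ^ 3) (φ (el cZ)) →
    (σ * e * φ (el cT)) ^ 3 ∈ C

namespace SC

variable (H : SC C φ σ)
include H

theorem mul {a b : ℕ} (ha : InN a) (hb : InN b) : F φ (cm a b) = F φ a * F φ b := ph_cm H.k0 ha hb

theorem cj {a x y : ℕ} (ha : InN a) (hx : InN x) (hy : InN y) (h : SB.cj a x y = true) :
    F φ a * F φ x = F φ y * F φ a := by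
  rw [← H.mul ha hx, ← H.mul hy ha, Nat.eq_of_beq_eq_true h]

theorem sq {a : ℕ} (ha : InN a) (h : cm a a = cOne) : F φ a * F φ a = 1 := by
  rw [← H.mul ha ha, h]; exact ph_one

theorem zz : F φ cZ * F φ cZ = 1 := H.sq inN_cZ (by decide +kernel)

theorem zσ : Commute (F φ cZ) σ := (mul_inv_eq_iff_eq_mul.1 (H.al _ cZ_mem)).symm

theorem ne {a : ℕ} (ha : InN a) (h : F φ a = 1) : nrm' a = cOne := by
  rw [nrm'_eq, ← code_el ha]; exact (mem_K0_iff_nrm _).1 (H.inj _ h)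

theorem zxor {a b : ℕ} (ha : a ≤ 1) (hb : b ≤ 1) : F φ cZ ^ (a ^^^ b) = F φ cZ ^ a * F φ cZ ^ b := by
  interval_cases a <;> interval_cases b <;> simp [H.zz]

theorem zsq (a : ℕ) : F φ cZ ^ a * F φ cZ ^ a = 1 := by rw [← (Commute.refl _).mul_pow, H.zz, one_pow]

variable {c : ℕ}

theorem ok_mul (hc : c < 4096) (x y : T3) (hx : Ok φ σ c x) (hy : Ok φ σ c y) :
    Ok φ σ c (cm x.1 y.1, cm x.2.1 y.2.1, x.2.2 ^^^ y.2.2) := by
  refine ⟨hx.a.cm hy.a, hx.b.cm hy.b, ?_, ?_, ?_⟩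
  · rw [H.mul hx.a hy.a]; exact hx.za.mul_right hy.za
  · rw [H.mul hx.b hy.b]; exact hx.zb.mul_right hy.zb
  · rw [H.mul hx.a hy.a, H.mul hx.b hy.b, par_and_xor _ _ _ hc, H.zxor (par_le _) (par_le _), ← mul_assoc, hx.e,
      mul_assoc, mul_assoc, hy.e, ← mul_assoc (_ ^ _), (hy.zb.pow_left _).eq]
    simp only [mul_assoc]

theorem ok_ev (hc : c < 4096) {L : List T3} (hL : ∀ x ∈ L, Ok φ σ c x) (m : ℕ) :
    Ok φ σ c (eA L m, eB L m, eX L m) := evs_ind (H.ok_mul hc) hL m SA.ok_one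

theorem ok_swap (ss : σ * σ = 1) {x : T3} (h : Ok φ σ c x) : Ok φ σ c (x.2.1, x.1, x.2.2) := by
  refine ⟨h.b, h.a, h.zb, h.za, ?_⟩
  calc σ * F φ x.2.1 = σ * (F φ x.2.1 * (F φ cZ ^ par (c &&& x.2.2) * σ)) * σ * F φ cZ ^ par (c &&& x.2.2) := by
        simp only [mul_assoc]
        rw [← mul_assoc σ σ, ss, one_mul, H.zsq, mul_one]
    _ = _ := by rw [← h.e, ← mul_assoc, ss, one_mul, mul_assoc, (H.zσ.pow_left _).eq]

theorem step {L : List T3} (hL : ∀ x ∈ L, Ok φ σ 0 x) {s x m : ℕ} (hs : InN s) (hx : InN x)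
    (h : SB.cj s x (eA L m) = true) : σ * F φ s * F φ x = F φ (eB L m) * (σ * F φ s) := by
  have k := H.ok_ev (by norm_num) hL m
  rw [mul_assoc, H.cj hs hx k.a h, ← mul_assoc, k.e0, mul_assoc]

theorem chain {L : List T3} (hL : ∀ x ∈ L, Ok φ σ 0 x) {s x0 : ℕ} (hs : InN s) {ms : List ℕ} {x : ℕ}
    (hx : InN x) (h : SB.chain L s x0 ms x = true) :
    (σ * F φ s) ^ ms.length * F φ x = F φ x0 * (σ * F φ s) ^ ms.length := by
  induction ms generalizing x with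
  | nil => simp [Nat.eq_of_beq_eq_true h]
  | cons m ms ih =>
    have h' : (SB.cj s x (eA L m) && force (eB L m) (SB.chain L s x0 ms)) = true := h
    rw [Bool.and_eq_true, force_eq] at h'
    rw [List.length_cons, pow_succ, mul_assoc, H.step hL hs hx h'.1, ← mul_assoc,
      ih (H.ok_ev (by norm_num) hL m).b h'.2, mul_assoc]

theorem chainN {L : List T3} (hL : ∀ x ∈ L, Ok φ σ 0 x) {n s x : ℕ} (hs : InN s) {ms : List ℕ}
    (hx : InN x) (h : SB.chainN n L s x ms = true) : Commute ((σ * F φ s) ^ n) (F φ x) := by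
  rw [SB.chainN, Bool.and_eq_true] at h
  rw [← Nat.eq_of_beq_eq_true h.1]
  exact H.chain hL hs hx h.2

/-- the conjugate of the relation `(σ s)³ = 1` by `σ r σ` -/
theorem fin (ss : σ * σ = 1) {s r x : ℕ} (hs : InN s) (s3 : (σ * F φ s) ^ 3 = 1) (hr : InN r) (rr : cm r r = cOne)
    (hx : InN x) (xx : cm x x = cOne) {d1 d2 dm y1 y2 ym : ℕ} (hd : Ok φ σ 0 (d1, d2, dm))
    (hy : Ok φ σ 0 (y1, y2, ym)) (h : cm (cm r d2) s = cm (cm y1 r) d1) (hu : (σ * F φ r) ^ 3 = F φ x) :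
    SB.fin r y2 x = cOne := by
  have e := congrArg (F φ) h
  have da : InN d1 := hd.a
  have db : InN d2 := hd.b
  have ya : InN y1 := hy.a
  have yb : InN y2 := hy.b
  rw [H.mul (hr.cm db) hs, H.mul hr db, H.mul (ya.cm hr) da, H.mul ya hr] at e
  have e1 : σ * F φ d2 = F φ d1 * σ := (H.ok_swap ss hd).e0
  have e2 : σ * F φ y1 = F φ y2 * σ := hy.e0
  have rr := H.sq hr rr
  have xx := H.sq hx xx
  have hu' := hx.cm hr
  have hg := hu'.cm ((hu'.cm yb).cm (hr.cm hx))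
  rw [SB.fin, force_eq, force_eq]
  refine H.ne (hg.cm (hg.cm hg)) ?_
  rw [H.mul hg (hg.cm hg), H.mul hg hg, H.mul hu' ((hu'.cm yb).cm (hr.cm hx)), H.mul (hu'.cm yb) (hr.cm hx),
    H.mul hu' yb, H.mul hx hr, H.mul hr hx, ← pow_three]
  generalize F φ s = s, F φ r = r, F φ x = u, F φ d1 = d1, F φ d2 = d2, F φ y1 = y1, F φ y2 = y2 at *
  have si : σ⁻¹ = σ := inv_eq_of_mul_eq_one_right ss
  have ri : r⁻¹ = r := inv_eq_of_mul_eq_one_right rr
  have ui : u⁻¹ = u := inv_eq_of_mul_eq_one_right xx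
  have k1 : σ * r * σ * σ * (σ * r * σ)⁻¹ = u * r := by
    rw [← hu, pow_three]; simp only [mul_inv_rev, si, ri, mul_assoc, rr, mul_one]
    rw [← mul_assoc σ σ, ss, one_mul]
  have k2 : σ * r * σ = u * r * σ * r := by
    rw [← hu, pow_three]; simp only [mul_assoc]
    rw [← mul_assoc r r, rr, one_mul, ← mul_assoc σ σ, ss, one_mul, rr, mul_one]
  have k3 : σ * r * σ * (d2 * s * d1⁻¹) * (σ * r * σ)⁻¹ = u * r * y2 * (r * u) := by
    calc _ = u * r * σ * (r * d2 * s) * d1⁻¹ * r⁻¹ * σ⁻¹ * r⁻¹ * u⁻¹ := by rw [k2]; group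
      _ = u * r * (σ * y1) * σ⁻¹ * r⁻¹ * u⁻¹ := by rw [e]; group
      _ = _ := by rw [e2, ri, ui]; group
  rw [← k3, ← k1, conj_mul, conj_pow, ← mul_assoc σ, ← mul_assoc σ, e1, mul_assoc d1, conj_pow, s3]
  group

theorem zc {x : ℕ × ℕ} (hx : x ∈ DP) : Commute (F φ cZ) (F φ x.1) ∧ Commute (F φ cZ) (F φ x.2) := by
  have := List.all_eq_true.1 kZ x (List.mem_cons_of_mem _ hx)
  rw [Bool.and_eq_true] at this
  obtain ⟨a, b, -⟩ := inN_DP x hx
  exact ⟨H.cj inN_cZ a a this.1, H.cj inN_cZ b b this.2⟩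

theorem zS : Commute (F φ cZ) (F φ cS) := by
  have := List.all_eq_true.1 kZ _ List.mem_cons_self
  rw [Bool.and_eq_true] at this
  exact H.cj inN_cZ inS inS this.1

theorem ok25 (c : ℕ) : ∀ x ∈ L25, Ok φ σ c x := by
  intro x hx
  obtain ⟨y, hy, rfl⟩ := List.mem_map.1 hx
  have hy' := List.mem_of_mem_drop hy
  refine ⟨(inN_DP y hy').1, (inN_DP y hy').2.1, (H.zc hy').1, (H.zc hy').2, ?_⟩
  rw [Nat.and_zero, par_zero, pow_zero, one_mul]
  exact mul_inv_eq_iff_eq_mul.1 (H.al y hy)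

theorem mulz : SC C φ (σ * F φ cZ) := by
  have k : ∀ e, e = 1 ∨ e = F φ cZ → F φ cZ * e = 1 ∨ F φ cZ * e = F φ cZ := by
    rintro e (rfl | rfl)
    exacts [.inr (mul_one _), .inl H.zz]
  refine ⟨H.k0, H.inj, fun x hx => ?_, H.cenQ, H.cenA, fun e he => ?_, mul_mem H.mem (H.nx _ rfl), H.nx,
    fun e he => ?_⟩
  · rw [← H.al x hx, mul_assoc σ, (H.zc (List.mem_of_mem_drop hx)).1.eq]; group
  · rw [mul_assoc]
    exact H.cen _ (k e he)
  · rw [mul_assoc σ]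
    exact H.good _ (k e he)

theorem pow_cen {n s : ℕ} (hs : InN s) (hc : Commute (F φ cZ) (F φ s)) {D : List (List ℕ)}
    (h : allz (fun x => SB.chainN n L25 s x.1) (DP.drop 12) D = true) :
    (σ * F φ s) ^ n = 1 ∨ (σ * F φ s) ^ n = F φ cZ := H.cenQ _ (pow_mem (mul_mem H.mem (H.nx _ hc)) _) fun x hx =>
  let ⟨_, e⟩ := allz_spec h x hx
  H.chainN (H.ok25 0) hs (inq hx) e

theorem upto {j : ℕ} (hj : j < 12) : σ * F φ (dp j).1 = F φ (dp j).2 * σ ∨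
    σ * F φ (dp j).1 = F φ (dp j).2 * (F φ cZ * σ) := by
  obtain ⟨D, hD⟩ := allz_spec kU j (List.mem_range.2 hj)
  obtain ⟨a, b, -⟩ := inN_DP _ (dp_mem j (by omega))
  have hz := H.zc (dp_mem j (by omega))
  have := H.cenQ (σ⁻¹ * (F φ (dp j).2)⁻¹ * σ * F φ (dp j).1) (mul_mem (mul_mem (mul_mem (inv_mem H.mem)
    (inv_mem (H.nx _ hz.2))) H.mem) (H.nx _ hz.1)) fun x hx => by
    obtain ⟨W, hW⟩ := allz_spec hD x hx
    rw [Bool.and_eq_true] at hW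
    have k := H.ok_ev (by norm_num) (H.ok25 0) W
    have e1 := H.cj a (inq hx) k.a hW.1
    have e2 := H.cj b (inN_DP x (List.mem_of_mem_drop hx)).2.1 k.b hW.2
    have e3 := H.al x hx
    have e4 := k.e0
    simp only at e4
    rw [mul_assoc, e1, ← mul_assoc, mul_assoc _ σ, e4, ← mul_inv_eq_iff_eq_mul.2 e2]
    show _ * (_ * φ (el x.2) * _ * σ) * _ = _
    rw [← e3]; group
  refine this.imp (fun e => ?_) fun e => ?_
  · rw [← mul_one (_ * σ), ← e]; group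
  · rw [H.zσ.eq]
    show _ = _ * (σ * φ (el cZ))
    rw [← e]; group

theorem exists_c : ∃ c < 4096, ∀ j < 12, Ok φ σ c (En j) := by
  classical
  refine ⟨Nat.ofBits fun j : Fin 12 => decide (σ * F φ (dp j).1 ≠ F φ (dp j).2 * σ), Nat.ofBits_lt_two_pow _,
    fun j hj => ?_⟩
  have hm := dp_mem j (by omega)
  refine ⟨(inN_DP _ hm).1, (inN_DP _ hm).2.1, (H.zc hm).1, (H.zc hm).2, ?_⟩
  show σ * F φ (dp j).1 = F φ (dp j).2 * (_ ^ par (_ &&& 2 ^ j) * σ)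
  rw [Nat.and_two_pow, Nat.testBit_ofBits_lt _ _ hj]
  by_cases e : σ * F φ (dp j).1 = F φ (dp j).2 * σ
  · simp [e, par_zero]
  · have : ∀ n < 12, par (2 ^ n) = 1 := by decide +kernel
    simpa [e, this j hj] using (H.upto hj).resolve_left e

theorem ok45 (ss : σ * σ = 1) {c : ℕ} (h : ∀ j < 12, Ok φ σ c (En j)) : ∀ x ∈ L45, Ok φ σ c x := by
  have : ∀ j ∈ YI, j < 12 := by decide
  simp only [L45, List.mem_append, List.mem_map]
  rintro x (⟨j, hj, rfl⟩ | ⟨j, hj, rfl⟩ | hx)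
  exacts [H.ok_swap ss (h j (this j hj)), h j (this j hj), H.ok25 c x hx]

theorem okL (ss : σ * σ = 1) {c : ℕ} (h : ∀ j < 12, Ok φ σ c (En j)) : ∀ x ∈ LL, Ok φ σ c x := by
  have : ∀ j ∈ [0, 1], j < 12 := by decide
  simp only [LL, List.mem_append, List.mem_map]
  rintro x (⟨j, hj, rfl⟩ | hx | ⟨j, hj, rfl⟩)
  exacts [h j (this j hj), H.ok45 ss h x hx, h j (this j hj)]

variable (s3 : (σ * F φ cS) ^ 3 = 1)
include s3

theorem ss : σ * σ = 1 := by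
  have h := H.pow_cen inN_one (by rw [F, F, ph_one]; exact Commute.one_right _) kC1
  rw [F, ph_one, mul_one, pow_two] at h
  exact h.elim id fun e => sq_one (H.sq inS kS.1) e H.zS H.zz s3

theorem ok12 : ∀ j < 12, Ok φ σ 0 (En j) := by
  obtain ⟨c, hc, h⟩ := H.exists_c
  have hL := H.ok_ev hc (H.okL (H.ss s3) h)
  have hx : ∀ a b, F φ cZ ^ par (c &&& (a ^^^ b)) = F φ cZ ^ par (c &&& a) * F φ cZ ^ par (c &&& b) :=
    fun a b => by rw [par_and_xor _ _ _ hc, H.zxor (SB.par_le' _) (SB.par_le' _)]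
  have hM : ∀ m ∈ Ms ++ [1, 2], F φ cZ ^ par (c &&& m) = 1 := fun m hm => by
    rcases List.mem_append.1 hm with hm | hm
    · obtain ⟨d, hd⟩ := allz_spec kR m hm
      simp only [Bool.and_eq_true, Nat.beq_eq] at hd
      have e1 := (hL d.1).e
      have e2 := (hL d.2).e
      simp only at e1 e2
      rw [hd.1.1, hd.1.2, e2, mul_right_inj, mul_left_inj] at e1
      rw [← hd.2, hx, ← e1, H.zsq]
    · obtain ⟨d, hd⟩ := allz_spec kT m hm
      simp only [Bool.and_eq_true, Nat.beq_eq] at hd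
      have e1 := (H.ok_swap (H.ss s3) (hL d)).e
      simp only [hd.2] at e1
      refine trick (A := F φ (eA LL d)) s3 ?_ ((H.zσ.mul_right H.zS).pow_left _) (H.zsq _)
      rw [mul_assoc, H.cj inS (hL d).a (hL d).b hd.1, ← mul_assoc, e1]
      simp only [mul_assoc]
  intro j hj
  obtain ⟨n, hn⟩ := allz_spec kI j (List.mem_range.2 hj)
  have := evs_ind1 (op := Nat.xor) (P := fun m => F φ cZ ^ par (c &&& m) = 1)
    (fun a b ha hb => (hx a b).trans (by rw [ha, hb, one_mul])) hM n (x := 0) (by rw [Nat.and_zero, par_zero, pow_zero])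
  rw [Nat.eq_of_beq_eq_true hn] at this
  have e := (h j hj).e
  refine ⟨(h j hj).a, (h j hj).b, (h j hj).za, (h j hj).zb, ?_⟩
  rw [Nat.zero_and, par_zero, pow_zero, e]
  exact congrArg (fun t => _ * (t * σ)) this

theorem ok45' : ∀ x ∈ L45, Ok φ σ 0 x := H.ok45 (H.ss s3) (H.ok12 s3)

theorem fin' {r x d y : ℕ} (hr : InN r) (rr : cm r r = cOne) (hx : InN x) (xx : cm x x = cOne)
    (h : cm (cm r (eB L45 d)) cS = cm (cm (eA L45 y) r) (eA L45 d)) (hu : (σ * F φ r) ^ 3 = F φ x) :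
    SB.fin r (eB L45 y) x = cOne :=
  H.fin (H.ss s3) inS s3 hr rr hx xx (H.ok_ev (by norm_num) (H.ok45' s3) d) (H.ok_ev (by norm_num) (H.ok45' s3) y) h hu

theorem br3 : (σ * F φ c3) ^ 3 = 1 := (H.pow_cen in3 (H.cj inN_cZ in3 in3 (by decide +kernel)) kC3).resolve_right fun e =>
  k4.2 (H.fin' s3 in3 kS.2.2.1 inN_cZ kS.2.2.2.1 k4.1 e)

theorem bad {x m : ℕ} (hx : InN x) (h : SB.bad x m = true) (hu : (σ * F φ cT) ^ 3 = F φ x) :
    (σ * F φ cT) ^ 3 = 1 := by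
  simp only [SB.bad, Bool.and_eq_true, Bool.or_eq_true, Bool.not_eq_true', ← Bool.not_eq_true,
    Nat.beq_eq] at h
  obtain ⟨⟨xx, h1⟩, (h | h) | h⟩ := h
  · rw [hu, h]; exact ph_one
  · have k := (H.ok_ev (by norm_num) (H.ok25 0) m).b
    have e := H.step (H.ok25 0) inT hx h1
    rw [← hu, ← pow_succ', pow_succ, hu, mul_left_inj] at e
    exact absurd (H.ne (k.cm hx) (by rw [H.mul k hx, ← e, H.sq hx xx])) h
  · exact absurd (H.fin' s3 inT kS.2.1 hx xx k5 hu) h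

theorem brT : (σ * F φ cT) ^ 3 = 1 := by
  have i25 : ∀ m, InN (eA L25 m) := fun m => (H.ok_ev (by norm_num) (H.ok25 0) m).a
  have iz : InN wz := kS.2.2.2.2.1 ▸ i25 _
  have ia : InN wa := kS.2.2.2.2.2 ▸ i25 _
  have i1 : InN w1 := inq dp_mem'.1
  have i2 : InN w2 := inq dp_mem'.2.1
  have key : ∀ x ∈ DP.drop 12, ∃ l, Commute ((σ * F φ cT) ^ 3) (F φ l) ∧ (∀ k, Commute (F φ (xk k)) (F φ l)) ∧
      (x ∈ (cZ, cZ) :: (DP.drop 23).take 12 → l = x.1) ∧ ∀ g, Commute g (F φ w1) → Commute g (F φ w2) →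
        Commute g (F φ l) → Commute g (F φ x.1) := fun x hx => by
    obtain ⟨d, hd⟩ := allz_spec kCT x hx
    simp only [force_eq, Bool.and_eq_true, Bool.or_eq_true, Nat.beq_eq, Bool.not_eq_true', decide_eq_false_iff_not]
      at hd
    have il : InN (evs cm [w1, w2] d.1 x.1) :=
      evs_ind1 (op := cm) (P := InN) (Q := InN) (fun _ _ => InN.cm) (by simp [i1, i2]) _ (inq hx)
    refine ⟨_, H.chainN (H.ok45' s3) inT il hd.1.1.1, fun k => ?_, fun h => hd.2.resolve_right (not_not.2 h),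
      fun g h1 h2 => ?_⟩
    · refine (evs_ind1 (P := fun a => InN a ∧ Commute (F φ a) _) (Q := fun a => InN a ∧ Commute (F φ a) _)
        (fun a b ha hb => ⟨ha.1.cm hb.1, by rw [H.mul ha.1 hb.1]; exact ha.2.mul_left hb.2⟩) ?_ k
        ⟨inN_one, by simp [F, ph_one]⟩).2
      simp only [List.mem_cons, List.not_mem_nil, or_false, forall_eq_or_imp, forall_eq]
      exact ⟨⟨iz, H.cj iz il il hd.1.1.2⟩, ia, H.cj ia il il hd.1.2⟩
    · refine (evs_ind1 (P := fun a => InN a ∧ (Commute g (F φ a) → Commute g (F φ x.1)))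
        (Q := fun a => InN a ∧ Commute g (F φ a)) (fun a b ha hb => ⟨ha.1.cm hb.1, fun c => ha.2 ?_⟩)
        (by simp [i1, i2, h1, h2]) _ ⟨inq hx, id⟩).2
      rw [H.mul ha.1 hb.1] at c
      simpa using c.mul_right hb.2.inv_right
  have uz : Commute ((σ * F φ cT) ^ 3) (F φ cZ) := by
    obtain ⟨l, h1, -, h2, -⟩ := key _ cZ_mem
    rwa [h2 List.mem_cons_self] at h1
  have uC : (σ * F φ cT) ^ 3 ∈ C := by simpa only [mul_one] using H.good 1 (.inl rfl) (by simpa only [mul_one] using uz)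
  have hA := H.cenA ((σ * F φ cT) ^ 3) uC (fun x hx => by
    obtain ⟨l, h1, -, h2, -⟩ := key x (dp_mem'.2.2.1 x hx)
    rw [h2 (List.mem_cons_of_mem _ hx)] at h1
    exact h1)
  have ix : ∀ k, InN (xk k) := fun k => evs_ind1 (op := cm) (P := InN) (Q := InN) (fun _ _ => InN.cm) (by simp [iz, ia]) _ inN_one
  have iz1 := inN_cZ.cm i1
  have iz2 := inN_cZ.cm i2
  obtain ⟨k, hk, c1, c2⟩ : ∃ k ∈ [0, 1, 2, 3], Commute ((σ * F φ cT) ^ 3 * F φ (xk k)) (F φ w1) ∧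
      Commute ((σ * F φ cT) ^ 3 * F φ (xk k)) (F φ w2) := by
    obtain ⟨a0, b0, a2, b2, a1, b1, a3, b3⟩ := kV
    rcases hA _ dp_mem'.1 with h1 | h1 <;> rcases hA _ dp_mem'.2.1 with h2 | h2
    · exact ⟨0, by simp, Commute.mul_left h1 (H.cj (ix _) i1 i1 a0), Commute.mul_left h2 (H.cj (ix _) i2 i2 b0)⟩
    · exact ⟨2, by simp, Commute.mul_left h1 (H.cj (ix _) i1 i1 a2),
        fixz uz H.zz h2 (H.mul inN_cZ i2 ▸ H.cj (ix _) i2 iz2 b2)⟩
    · exact ⟨1, by simp, fixz uz H.zz h1 (H.mul inN_cZ i1 ▸ H.cj (ix _) i1 iz1 a1),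
        Commute.mul_left h2 (H.cj (ix _) i2 i2 b1)⟩
    · exact ⟨3, by simp, fixz uz H.zz h1 (H.mul inN_cZ i1 ▸ H.cj (ix _) i1 iz1 a3),
        fixz uz H.zz h2 (H.mul inN_cZ i2 ▸ H.cj (ix _) i2 iz2 b3)⟩
  obtain ⟨d, hd⟩ := allz_spec kW k hk
  rw [Bool.and_eq_true] at hd
  have xx : F φ (xk k) * F φ (xk k) = 1 := H.sq (ix k) (by
    have := hd.1
    simp only [SB.bad, Bool.and_eq_true, Nat.beq_eq] at this
    exact this.1.1)
  rcases H.cenQ ((σ * F φ cT) ^ 3 * F φ (xk k)) (mul_mem uC (H.nx _ (by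
    obtain ⟨l, -, h1, h2, -⟩ := key _ cZ_mem
    rw [h2 List.mem_cons_self] at h1
    exact (h1 k).symm))) (fun x hx => by
    obtain ⟨l, h1, h2, -, h3⟩ := key x hx
    exact h3 _ c1 c2 (h1.mul_left (h2 k))) with e | e
  · exact H.bad s3 (ix k) hd.1 (mul_right_cancel (e.trans xx.symm))
  · refine H.bad s3 (inN_cZ.cm (ix k)) hd.2 (mul_right_cancel (b := F φ (xk k)) ?_)
    rw [e, H.mul inN_cZ (ix k), mul_assoc, xx, mul_one]

theorem hyp0 : Hyp φ σ := by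
  have ss := H.ss s3
  refine ⟨H.k0, ss, fun x hx => ?_, ?_⟩
  · rcases dp_mem'.2.2.2 x hx with h | ⟨j, hj, rfl⟩
    · rw [← H.al x h, inv_eq_of_mul_eq_one_right ss]
    · exact (congrArg (· * σ) (H.ok12 s3 j hj).e0).trans (by rw [mul_assoc, ss, mul_one]; rfl)
  · simp only [List.mem_cons, List.not_mem_nil, or_false, forall_eq_or_imp, forall_eq]
    exact ⟨braid ss (H.sq inS kS.1) s3, braid ss (H.sq inT kS.2.1) (H.brT s3), braid ss (H.sq in3 kS.2.2.1) (H.br3 s3)⟩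

end SC

theorem SC.hyp (H : SC C φ σ) :
    ∃ e, (e = 1 ∨ e = φ (el cZ)) ∧ Hyp φ (σ * e) := by
  rcases H.pow_cen inS H.zS kCS with h | h
  · exact ⟨1, .inl rfl, (mul_one σ).symm ▸ H.hyp0 h⟩
  · refine ⟨_, .inr rfl, H.mulz.hyp0 ?_⟩
    rw [mul_assoc, H.zS.eq, ← mul_assoc, ((H.zσ.mul_right H.zS).symm).mul_pow, h, ← pow_succ',
      show 3 + 1 = 2 * 2 from rfl, pow_mul, pow_two (F φ cZ), H.zz, one_pow]

end Cfsg.Agent.H8.MA
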