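import Cfsg.Agent.MON.CmA
import Cfsg.Agent.MON.StrP
import Cfsg.Agent.H15.FixPt

/-! Classes of the Leech lattice modulo 2 fixed by sign changes and by an element of order 23. -/

set_option autoImplicit false

namespace Cfsg.Agent.H8.MA

open Subgroup H15 MON.Cm

theorem sub_sign {v : leechLattice} {c : Finset GolayPt} (hc : IsCw c) (i : GolayPt) :
    ((v + -(signC c hc • v) : leechLattice) : Vec) i = if i ∈ c then 2 * (v : Vec) i else 0 := by
  rw [AddSubgroup.coe_add, AddSubgroup.coe_neg, Pi.add_apply, Pi.neg_apply, signC_apply]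
  split_ifs <;> ring

/-- the classes fixed by all sign changes -/
theorem fix_sign {v : leechLattice} (h : ∀ c hc, ∃ w, signC c hc • v = v + (w + w)) :
    (∃ w, v = w + w) ∨ ∃ w, v = e8 none + (w + w) := by
  obtain ⟨u, hu⟩ := four_of_w4 (v := v) fun i j e => by
    obtain ⟨c, d, hc, hd, e⟩ := exists_duad e
    obtain ⟨w, hw⟩ := h d hd
    obtain ⟨k, hk⟩ := eight_dvd_dot w.2 (vTwo_mem hc)
    have := co0_dot (signC d hd) v (signC d hd • ⟨_, vTwo_mem hc⟩)
    rw [← mul_smul, signC_sq, one_smul, hw] at this
    rw [← e, AddSubgroup.coe_add, AddSubgroup.coe_neg, dot_add_right, dot_neg_right, ← this]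
    simp only [AddSubgroup.coe_add, dot_add_left, hk]
    omega
  have he : IsCw (Finset.univ.filter fun i => ((v + (u + u) : leechLattice) : Vec) i % 8 = 4) :=
    isCw_of_even fun d hd => (dot_vTwo hu d).1 (by
      obtain ⟨w, hw⟩ := h d hd
      have e : ∀ i, ((u - signC d hd • u - w : leechLattice) : Vec) i =
          if i ∈ d then ((v + (u + u) : leechLattice) : Vec) i else 0 := fun i => by
        have := congrArg (fun x : leechLattice => (x : Vec) i) hw
        simp only [signC_apply, AddSubgroup.coe_add, AddSubgroup.coe_sub, Pi.add_apply, Pi.sub_apply] at this ⊢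
        split_ifs at this ⊢ <;> omega
      have h2 := ((parity_cases (u - signC d hd • u - w).2).resolve_right fun a => by
        have := a.1 none
        have := hu none
        rw [e] at *
        split_ifs at * <;> omega).2
      rw [dotInt, Finset.sum_congr rfl (g := fun i => 2 * ((u - signC d hd • u - w : leechLattice) : Vec) i)
        fun i _ => by rw [e, vTwo]; split_ifs <;> ring, ← Finset.mul_sum]
      omega)
  have : ∀ i, ∃ m, (v : Vec) i + 2 * (u : Vec) i - 2 * vTwo (Finset.univ.filter fun i =>
      ((v + (u + u) : leechLattice) : Vec) i % 8 = 4) i = 8 * m := fun i => by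
    have := hu i
    refine Int.dvd_of_emod_eq_zero ?_
    simp only [vTwo, Finset.mem_filter, Finset.mem_univ, true_and, AddSubgroup.coe_add, Pi.add_apply] at this ⊢
    split_ifs <;> omega
  choose m hm using this
  rcases Int.emod_two_eq_zero_or_one (∑ i, m i) with e | e
  · refine .inl ⟨⟨fun i => 4 * m i, mem_leech_of_four_dvd (fun i => by omega) (by rw [← Finset.mul_sum]; omega)⟩ +
      ⟨_, vTwo_mem he⟩ - u, Subtype.ext (funext fun i => ?_)⟩
    have := hm i
    simp only [AddSubgroup.coe_add, AddSubgroup.coe_sub, Pi.add_apply, Pi.sub_apply] at this ⊢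
    omega
  · refine .inr ⟨⟨fun i => 4 * m i - if i = none then 4 else 0, mem_leech_of_four_dvd
      (fun i => by split_ifs <;> omega) (by
        rw [Finset.sum_sub_distrib, ← Finset.mul_sum, Finset.sum_ite_eq', if_pos (Finset.mem_univ _)]; omega)⟩ +
      ⟨_, vTwo_mem he⟩ - u, Subtype.ext (funext fun i => ?_)⟩
    have := hm i
    simp only [AddSubgroup.coe_add, AddSubgroup.coe_sub, Pi.add_apply, Pi.sub_apply, e8_val, Pi.single_apply]
      at this ⊢
    split_ifs <;> omega

theorem card_const {D : Finset GolayPt} (hD : D.card = 5) {p : GolayPt} (hp : p ∉ D) {B : Subgroup Co0}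
    (h : ∀ k ∈ B, ∃ c hc, k = signC c hc ∧ ∀ i ∈ D, i ∈ c ↔ p ∈ c) : Nat.card B ≤ 128 := by
  let r : golayCode →ₗ[ZMod 2] (D → ZMod 2) :=
    (LinearMap.funLeft _ _ Subtype.val + LinearMap.funLeft _ _ fun _ => p).comp golayCode.subtype
  have hr : LinearMap.range r = ⊤ := by
    by_contra hn
    obtain ⟨f, h0, hf⟩ := Submodule.exists_le_ker_of_lt_top _ (lt_top_iff_ne_top.2 hn)
    let e := D.filter fun i => ∃ h : i ∈ D, f (fun j => if ⟨i, h⟩ = j then 1 else 0) = 1
    have h1 : ∀ c, IsCw c → (((c ∩ e).card : ZMod 2) + e.card * ind c p = 0) := fun c hc => by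
      have := hf ⟨⟨_, (isCw_iff c).1 hc⟩, rfl⟩
      rw [LinearMap.mem_ker, LinearMap.pi_apply_eq_sum_univ, Finset.sum_congr rfl
        (g := fun i : D => if (i : GolayPt) ∈ e then ind c i + ind c p else 0) fun i _ => by
          rcases zmod2_cases (f fun j => if i = j then 1 else 0) with a | a <;> simp [e, a, r, LinearMap.funLeft_apply],
        Finset.sum_coe_sort D fun i => if i ∈ e then ind c i + ind c p else 0, ← Finset.sum_filter,
        Finset.filter_mem_eq_inter, Finset.inter_eq_right.2 (Finset.filter_subset _ _),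
        Finset.sum_add_distrib] at this
      simpa [ind, Finset.inter_comm] using this
    have h2 : e.card ≤ 5 := hD ▸ Finset.card_filter_le _ _
    have hp' : p ∉ e := fun a => hp (Finset.mem_filter.1 a).1
    have h3 : e.card = 0 := by
      rcases Nat.even_or_odd e.card with a | a
      · have := (isCw_of_even (e := e) fun c hc => by
          simpa [ZMod.natCast_eq_zero_iff_even.2 a, ZMod.natCast_eq_zero_iff_even] using h1 c hc).card_cases
        omega
      · have := (isCw_of_even (e := insert p e) fun c hc => by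
          have := h1 c hc
          rw [ZMod.natCast_eq_one_iff_odd.2 a, one_mul, ind] at this
          rw [← ZMod.natCast_eq_zero_iff_even]
          split_ifs at this with b
          · rwa [Finset.inter_insert_of_mem b, Finset.card_insert_of_notMem (by simp [hp']), Nat.cast_succ]
          · rwa [Finset.inter_insert_of_notMem b, ← add_zero (Nat.cast _)]).card_cases
        rw [Finset.card_insert_of_notMem hp'] at this
        omega
    refine h0 (LinearMap.ext fun x => ?_)
    rw [LinearMap.pi_apply_eq_sum_univ]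
    refine Finset.sum_eq_zero fun i _ => ?_
    rw [(zmod2_cases _).resolve_right fun a => Finset.card_ne_zero.2
      ⟨i.1, Finset.mem_filter.2 ⟨i.2, i.2, a⟩⟩ h3, smul_zero]
  have h1 := Submodule.card_eq_card_quotient_mul_card (LinearMap.ker r)
  rw [Nat.card_congr r.quotKerEquivRange.toEquiv, hr, MON.StP.card_golay, Nat.card_congr Submodule.topEquiv.toEquiv,
    Nat.card_fun, Nat.card_zmod, Nat.card_eq_fintype_card (α := D), Fintype.card_coe, hD] at h1
  choose c hc e1 e2 using h
  refine (Nat.card_le_card_of_injective (β := LinearMap.ker r) (fun k : B => ⟨⟨_, (isCw_iff _).1 (hc k k.2)⟩,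
    funext fun i => ?_⟩) fun k l e => Subtype.ext ?_).trans (by omega)
  · change ind _ i + ind _ p = 0
    simp only [ind, e2 k k.2 i i.2, CharTwo.add_self_eq_zero]
  · have := congrArg (fun x : LinearMap.ker r => support₂ x.1.1) e
    simp only [support₂_ind] at this
    rw [e1 k k.2, e1 l l.2]
    congr 1

/-- a 2-group of monomial elements fixing the classes of all duads inside six points is small -/
theorem card_small {A : Subgroup Co0} (hA : A ≤ monoN) (h2 : Nat.card A = 4096) {D : Finset GolayPt}
    (hD : 6 ≤ D.card) (h : ∀ k ∈ A, ∀ i ∈ D, ∀ j ∈ D, i ≠ j → ∃ w, k • w4 i j 1 rfl = w4 i j 1 rfl + (w + w)) :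
    False := by
  obtain ⟨D, h1, hD⟩ := Finset.exists_subset_card_eq hD
  obtain ⟨p, hp⟩ := Finset.card_pos.1 (show 0 < D.card by omega)
  have h5 : (D.erase p).card = 5 := by rw [Finset.card_erase_of_mem hp, hD]
  have key : ∀ (σ : M24) c hc, signC c hc * permC σ ∈ A → ∀ i ∈ D, ∀ j ∈ D, i ≠ j →
      ((σ : Equiv.Perm GolayPt).symm i = i ∨ (σ : Equiv.Perm GolayPt).symm i = j) ∧ (i ∈ c ↔ j ∈ c) :=
    fun σ c hc a i hi j hj e => by
      obtain ⟨w, hw⟩ := h _ a i (h1 hi) j (h1 hj) e
      have n := sqNorm_w4 e (e := 1) rfl rfl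
      have n' := (co0_norm (signC c hc * permC σ) _).trans n
      have := (short_congr hw (by omega) (by omega) (by omega) (by omega)).2 (by omega)
      have a1 := this.imp (congrArg fun x : leechLattice => (x : Vec) i) (congrArg fun x : leechLattice => (x : Vec) i)
      have a2 := this.imp (congrArg fun x : leechLattice => ((x : Vec) i, (x : Vec) j))
        (congrArg fun x : leechLattice => ((x : Vec) i, (x : Vec) j))
      simp only [mul_smul, AddSubgroup.coe_neg, Pi.neg_apply, signC_apply, permC_apply, w4_apply, e, e.symm,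
        if_true, if_false, Prod.mk.injEq] at a1 a2
      constructor
      · by_contra! b
        simp [b] at a1
      · split_ifs at a2 <;> first | omega | tauto
  let f := monoP.comp (inclusion hA)
  have c1 := f.ker.card_mul_index
  have c2 : Nat.card f.ker ≤ 128 := by
    rw [← card_map_of_injective A.subtype_injective]
    refine card_const h5 (Finset.notMem_erase p D) ?_
    rintro _ ⟨k, hk, rfl⟩
    obtain ⟨c, hc, e⟩ := (monoP_eq_one_iff _).1 hk
    refine ⟨c, hc, e, fun i hi => (key 1 c hc ?_ i (Finset.mem_of_mem_erase hi) p hp (Finset.ne_of_mem_erase hi)).2⟩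
    rw [permC_one, mul_one, ← e]
    exact k.2
  have c3 : f.range ≤ fixingSubgroup M24 (D.erase p : Set GolayPt) := by
    rintro _ ⟨k, rfl⟩
    obtain ⟨_, ⟨c, hc, rfl⟩, e⟩ := monoP_spec (inclusion hA k)
    refine (mem_fixingSubgroup_iff _).2 fun i hi => ?_
    have hi' := Finset.mem_of_mem_erase hi
    obtain ⟨j, hj⟩ := Finset.card_pos.1 (show 0 < ((D.erase p).erase i).card by
      rw [Finset.card_erase_of_mem hi]; omega)
    have a1 := (key _ c hc (e ▸ k.2) i hi' p hp (Finset.ne_of_mem_erase hi)).1
    have a2 := (key _ c hc (e ▸ k.2) i hi' j (Finset.mem_of_mem_erase (Finset.mem_of_mem_erase hj))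
      (Finset.ne_of_mem_erase hj).symm).1
    refine ((Equiv.symm_apply_eq _).1 (a1.elim id fun b => a2.elim id fun b' => ?_)).symm
    exact absurd (b'.symm.trans b) (Finset.ne_of_mem_erase (Finset.mem_of_mem_erase hj))
  have c4 := H14.m24_five_transitive.index_of_fixingSubgroup_mul (s := (D.erase p : Set GolayPt))
    (by rw [Set.ncard_coe_finset, h5])
  have c5 := (fixingSubgroup M24 (D.erase p : Set GolayPt)).card_mul_index
  rw [Nat.card_eq_fintype_card, card_pt] at c4
  rw [H14.card_M24, show (fixingSubgroup M24 (D.erase p : Set GolayPt)).index = 5100480 from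
    Nat.eq_of_mul_eq_mul_right (Nat.factorial_pos _) (c4.trans (by decide))] at c5
  have c6 := card_dvd_of_le c3
  rw [index_ker, h2] at c1
  rw [show Nat.card (fixingSubgroup M24 (D.erase p : Set GolayPt)) = 48 by omega] at c6
  have c7 : _ ≤ 16 := Nat.le_of_dvd (by norm_num) (Nat.dvd_gcd (Dvd.intro_left _ c1) c6)
  have := Nat.mul_le_mul c2 c7
  omega

/-- the vectors fixed by the element of order 23 -/
theorem cls23 {v : leechLattice} (h : permC s23 • v = v) : ∃ a b : ℤ, v = a • vv + b • e8 none := by
  have h1 := sum_fix23 h (fun _ a => a) fun _ => rfl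
  obtain ⟨b, hb⟩ : (8 : ℤ) ∣ (v : Vec) none - 5 * (v : Vec) (some 0) := by
    rcases parity_cases v.2 with ⟨a, b⟩ | ⟨a, b⟩ <;> have := a (some 0) <;> omega
  refine ⟨-(v : Vec) (some 0), b, Subtype.ext (funext fun i => ?_)⟩
  simp only [AddSubgroup.coe_add, AddSubgroup.coe_zsmul, Pi.add_apply, Pi.smul_apply, vv_val, e8_val,
    Pi.single_apply, smul_eq_mul]
  rcases i with _ | i
  · simp; omega
  · simp [fix23 h i]

end Cfsg.Agent.H8.MA
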