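import Cfsg.Agent.H15.LF.E8A

/-! `SL₃(2)` has no element of order 6. -/

set_option autoImplicit false

namespace Cfsg.Agent.H8.MA

open H15.LF

set_option synthInstance.maxSize 2000 in
set_option synthInstance.maxHeartbeats 400000 in
theorem six0 : ∀ a b c d e f g h i : ZMod 2, (a*a+b*d+c*g = 1 ∧ a*b+b*e+c*h = 0 ∧ a*c+b*f+c*i = 0 ∧
    d*a+e*d+f*g = 0 ∧ d*b+e*e+f*h = 1 ∧ d*c+e*f+f*i = 0 ∧ g*a+h*d+i*g = 0 ∧ g*b+h*e+i*h = 0 ∧ g*c+h*f+i*i = 1) →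
    !![a, b, c; d, e, f; g, h, i] ≠ 1 → ∀ a' b' c' d' e' f' g' h' i' : ZMod 2,
    (a*a'+b*d'+c*g' = a'*a+b'*d+c'*g ∧ a*b'+b*e'+c*h' = a'*b+b'*e+c'*h ∧ a*c'+b*f'+c*i' = a'*c+b'*f+c'*i ∧
    d*a'+e*d'+f*g' = d'*a+e'*d+f'*g ∧ d*b'+e*e'+f*h' = d'*b+e'*e+f'*h ∧ d*c'+e*f'+f*i' = d'*c+e'*f+f'*i ∧
    g*a'+h*d'+i*g' = g'*a+h'*d+i'*g ∧ g*b'+h*e'+i*h' = g'*b+h'*e+i'*h ∧ g*c'+h*f'+i*i' = g'*c+h'*f+i'*i) →
    !![a', b', c'; d', e', f'; g', h', i'] * (!![a', b', c'; d', e', f'; g', h', i'] *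
      !![a', b', c'; d', e', f'; g', h', i']) = 1 → !![a', b', c'; d', e', f'; g', h', i'] = 1 := by
  decide +kernel

theorem six1 (a b : L3) (h1 : a * a = 1) (h2 : a ≠ 1) (h3 : a * b = b * a) (h4 : b * (b * b) = 1) : b = 1 := by
  replace h1 : a.1 * a.1 = 1 := congrArg Subtype.val h1
  replace h2 : a.1 ≠ 1 := fun e => h2 (Subtype.ext e)
  replace h3 : a.1 * b.1 = b.1 * a.1 := congrArg Subtype.val h3
  replace h4 : b.1 * (b.1 * b.1) = 1 := congrArg Subtype.val h4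
  refine Subtype.ext (show b.1 = 1 from ?_)
  generalize a.1 = a, b.1 = b at *
  rw [a.eta_fin_three] at h1 h2 h3
  rw [b.eta_fin_three] at h3 h4 ⊢
  refine six0 _ _ _ _ _ _ _ _ _ ?_ h2 _ _ _ _ _ _ _ _ _ ?_ h4
  · rw [Matrix.mul_fin_three, Matrix.one_fin_three] at h1
    simpa [and_assoc] using h1
  · rw [Matrix.mul_fin_three, Matrix.mul_fin_three] at h3
    simpa [and_assoc] using h3
end Cfsg.Agent.H8.MA
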